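import Cfsg.Agent.H831.RepLift
import Cfsg.Agent.Characters.Core

/-!
# Coprime modules over finite fields and complex representations

`lift` : a representation `σ : L →* GL_n(F)` of a finite `p'`-group over a finite field of
characteristic `p` has a complex representation `ρ` of the same degree such that for every
subgroup `X` the fixed spaces of `X` have the same dimension (and the same for the
commutants, so absolutely irreducible ones correspond to irreducible ones).
-/

set_option autoImplicit false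
set_option linter.unusedSectionVars false

open Polynomial Module

namespace Cfsg.Agent.H828.HT.Lift

/-! ### Ranks of idempotents -/

theorem charpoly_idem {K V : Type*} [Field K] [AddCommGroup V] [Module K V]
    [FiniteDimensional K V] (e : V →ₗ[K] V) (he : IsIdempotentElem e) :
    e.charpoly = (X - 1) ^ finrank K (LinearMap.range e) *
      X ^ finrank K (LinearMap.ker e) := by
  have hc : IsCompl (LinearMap.range e) (LinearMap.ker e) := by
    exact LinearMap.IsIdempotentElem.isCompl he
  let E := Submodule.prodEquivOfIsCompl _ _ hc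
  have h1 : e = E.conj ((LinearMap.id : LinearMap.range e →ₗ[K] LinearMap.range e).prodMap
      (0 : LinearMap.ker e →ₗ[K] LinearMap.ker e)) := by
    ext v
    obtain ⟨⟨a, b⟩, rfl⟩ := E.surjective v
    rw [LinearEquiv.conj_apply]
    simp only [LinearMap.comp_apply, LinearEquiv.coe_coe, LinearEquiv.symm_apply_apply,
      LinearMap.prodMap_apply, LinearMap.id_apply, LinearMap.zero_apply]
    change e ((a : V) + b) = (a : V) + ((0 : LinearMap.ker e) : V)
    rw [map_add, LinearMap.mem_ker.1 b.2, Submodule.coe_zero]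
    congr 1
    obtain ⟨w, hw⟩ := a.2
    rw [← hw]
    exact LinearMap.congr_fun he w
  conv_lhs => rw [h1]
  rw [LinearEquiv.charpoly_conj, LinearMap.charpoly_prodMap]
  congr 1
  · exact LinearMap.charpoly_one (R := K) (M := LinearMap.range e)
  · exact LinearMap.charpoly_zero (R := K) (M := LinearMap.ker e)

/-- rank of a matrix idempotent -/
noncomputable def rk {K : Type*} [Field K] {n : Type*} [Fintype n] [DecidableEq n]
    (e : Matrix n n K) : ℕ := finrank K (LinearMap.range (Matrix.toLin' e))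

theorem charpoly_mat {K : Type*} [Field K] {n : Type*} [Fintype n] [DecidableEq n]
    {e : Matrix n n K} (he : e * e = e) :
    ∃ b, rk e + b = Fintype.card n ∧ e.charpoly = (X - 1) ^ rk e * X ^ b := by
  have h1 : IsIdempotentElem (Matrix.toLin' e) := by
    rw [IsIdempotentElem, Module.End.mul_eq_comp, ← Matrix.toLin'_mul, he]
  refine ⟨finrank K (LinearMap.ker (Matrix.toLin' e)), ?_, ?_⟩
  · rw [rk, LinearMap.finrank_range_add_finrank_ker, Module.finrank_fintype_fun_eq_card]
  · rw [← Matrix.charpoly_toLin', charpoly_idem _ h1]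
    rfl

/-- ranks of idempotents are preserved by reduction -/
theorem rk_map {A K k : Type*} [CommRing A] [Field K] [Field k] {n : Type*}
    [Fintype n] [DecidableEq n] (ι : A →+* K) (hι : Function.Injective ι) (φ : A →+* k)
    {e : Matrix n n A} (he : e * e = e) : rk (e.map ι) = rk (e.map φ) := by
  have h1 : e.map ι * e.map ι = e.map ι := by
    rw [← Matrix.map_mul, he]
  have h2 : e.map φ * e.map φ = e.map φ := by
    rw [← Matrix.map_mul, he]
  obtain ⟨b, hb, hb'⟩ := charpoly_mat h1
  obtain ⟨c, hc, hc'⟩ := charpoly_mat h2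
  have h3 : e.charpoly = (X - 1) ^ rk (e.map ι) * X ^ b := by
    apply Polynomial.map_injective ι hι
    rw [← Matrix.charpoly_map, hb']
    simp
  have h4 : (X - 1 : k[X]) ^ rk (e.map ι) * X ^ b = (X - 1) ^ rk (e.map φ) * X ^ c := by
    rw [← hc', Matrix.charpoly_map, h3]
    simp
  have key : ∀ (a a' b b' : ℕ), a + b = a' + b' →
      (X - 1 : k[X]) ^ a * X ^ b = (X - 1) ^ a' * X ^ b' → a ≤ a' → a' ≤ a := by
    intro a a' b b' hab h haa
    by_contra hlt
    obtain ⟨t, rfl⟩ := Nat.exists_eq_add_of_le haa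
    have hbt : b = b' + t := by omega
    subst hbt
    have ht : 0 < t := by omega
    have hX1 : (X - 1 : k[X]) ≠ 0 := by
      rw [← Polynomial.C_1]
      exact Polynomial.X_sub_C_ne_zero 1
    have h5 : (X : k[X]) ^ t = (X - 1) ^ t := by
      have h6 : (X - 1 : k[X]) ^ a * X ^ b' * X ^ t = (X - 1) ^ a * X ^ b' * (X - 1) ^ t := by
        calc (X - 1 : k[X]) ^ a * X ^ b' * X ^ t = (X - 1) ^ a * X ^ (b' + t) := by
              rw [pow_add]; ring
          _ = (X - 1) ^ (a + t) * X ^ b' := h
          _ = _ := by rw [pow_add]; ring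
      exact mul_left_cancel₀ (mul_ne_zero (pow_ne_zero _ hX1)
        (pow_ne_zero _ Polynomial.X_ne_zero)) h6
    have h7 := congrArg (Polynomial.eval 1) h5
    simp [ht.ne'] at h7
  rcases le_total (rk (e.map ι)) (rk (e.map φ)) with h | h
  · exact le_antisymm h (key _ _ _ _ (hb.trans hc.symm) h4 h)
  · exact le_antisymm (key _ _ _ _ (hc.trans hb.symm) h4.symm h) h

/-! ### Averaging projectors -/

section proj

variable {L : Type*} [Group L] [Finite L] {n : Type*} [Fintype n] [DecidableEq n]

/-- averaging projector, `c` is the inverse of `|X|` -/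
noncomputable def proj {R : Type*} [CommRing R] (τ : L →* (Matrix n n R)ˣ) (Y : Subgroup L)
    (c : R) : Matrix n n R :=
  c • ∑ᶠ x : Y, ((τ x : (Matrix n n R)ˣ) : Matrix n n R)

theorem proj_mul {R : Type*} [CommRing R] (τ : L →* (Matrix n n R)ˣ) (Y : Subgroup L)
    (c : R) (x : L) (hx : x ∈ Y) :
    ((τ x : (Matrix n n R)ˣ) : Matrix n n R) * proj τ Y c = proj τ Y c := by
  have := Fintype.ofFinite Y
  rw [proj, finsum_eq_sum_of_fintype, mul_smul_comm, Finset.mul_sum]
  congr 1
  exact Fintype.sum_equiv (Equiv.mulLeft (⟨x, hx⟩ : Y)) _ _ (fun y => by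
    simp [map_mul])

theorem proj_idem {R : Type*} [CommRing R] (τ : L →* (Matrix n n R)ˣ) (Y : Subgroup L)
    {c : R} (hc : c * (Nat.card Y : R) = 1) : proj τ Y c * proj τ Y c = proj τ Y c := by
  have := Fintype.ofFinite Y
  conv_lhs => 
    enter [1]
    rw [proj, finsum_eq_sum_of_fintype]
  rw [smul_mul_assoc, Finset.sum_mul,
    Finset.sum_congr rfl (fun (x : Y) _ => proj_mul τ Y c (x : L) x.2), Finset.sum_const,
    Finset.card_univ, ← Nat.card_eq_fintype_card, ← Nat.cast_smul_eq_nsmul R, smul_smul, hc,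
    one_smul]

theorem proj_map {R S : Type*} [CommRing R] [CommRing S] (f : R →+* S)
    (τ : L →* (Matrix n n R)ˣ) (Y : Subgroup L) (c : R) :
    (proj τ Y c).map f = proj ((Units.map f.mapMatrix.toMonoidHom).comp τ) Y (f c) := by
  have := Fintype.ofFinite Y
  rw [proj, proj, finsum_eq_sum_of_fintype, finsum_eq_sum_of_fintype]
  change f.mapMatrix (c • ∑ x : Y, ((τ x : (Matrix n n R)ˣ) : Matrix n n R)) = _
  rw [show c • ∑ x : Y, ((τ x : (Matrix n n R)ˣ) : Matrix n n R) =
    (Matrix.scalar n c) * ∑ x : Y, ((τ x : (Matrix n n R)ˣ) : Matrix n n R) by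
      rw [Matrix.scalar_apply, ← Matrix.smul_eq_diagonal_mul], map_mul, map_sum]
  rw [show f.mapMatrix (Matrix.scalar n c) = Matrix.scalar n (f c) by
    ext i j
    simp [Matrix.scalar_apply, Matrix.diagonal_apply, apply_ite f]]
  rw [Matrix.scalar_apply, ← Matrix.smul_eq_diagonal_mul]
  rfl

/-- fixed vectors of `Y` -/
def fixM {K : Type*} [Field K] (τ : L →* (Matrix n n K)ˣ) (Y : Subgroup L) :
    Submodule K (n → K) where
  carrier := {v | ∀ x ∈ Y, ((τ x : (Matrix n n K)ˣ) : Matrix n n K).mulVec v = v}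
  add_mem' := fun {a b} ha hb x hx => by rw [Matrix.mulVec_add, ha x hx, hb x hx]
  zero_mem' := fun x _ => Matrix.mulVec_zero _
  smul_mem' := fun c v hv x hx => by rw [Matrix.mulVec_smul, hv x hx]

theorem range_proj {K : Type*} [Field K] (τ : L →* (Matrix n n K)ˣ) (Y : Subgroup L)
    {c : K} (hc : c * (Nat.card Y : K) = 1) :
    LinearMap.range (Matrix.toLin' (proj τ Y c)) = fixM τ Y := by
  have := Fintype.ofFinite Y
  ext v
  constructor
  · rintro ⟨w, rfl⟩ x hx
    rw [Matrix.toLin'_apply, Matrix.mulVec_mulVec, proj_mul τ Y c x hx]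
  · intro hv
    refine ⟨v, ?_⟩
    rw [Matrix.toLin'_apply, proj, finsum_eq_sum_of_fintype, Matrix.smul_mulVec,
      Matrix.sum_mulVec, Finset.sum_congr rfl (fun (x : Y) _ => hv (x : L) x.2), Finset.sum_const,
      Finset.card_univ, ← Nat.card_eq_fintype_card, ← Nat.cast_smul_eq_nsmul K, smul_smul, hc,
      one_smul]

theorem finrank_fixM {K : Type*} [Field K] (τ : L →* (Matrix n n K)ˣ) (Y : Subgroup L)
    {c : K} (hc : c * (Nat.card Y : K) = 1) : finrank K (fixM τ Y) = rk (proj τ Y c) := by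
  rw [rk, range_proj τ Y hc]

/-- change of coefficients -/
noncomputable def mp {R S : Type*} [CommRing R] [CommRing S] (f : R →+* S)
    (τ : L →* (Matrix n n R)ˣ) : L →* (Matrix n n S)ˣ :=
  (Units.map f.mapMatrix.toMonoidHom).comp τ

omit [Finite L] in
theorem mp_apply {R S : Type*} [CommRing R] [CommRing S] (f : R →+* S)
    (τ : L →* (Matrix n n R)ˣ) (g : L) :
    ((mp f τ g : (Matrix n n S)ˣ) : Matrix n n S) = ((τ g : (Matrix n n R)ˣ) : Matrix n n R).map f :=
  rfl

/-- the trace function -/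
def tr {R : Type*} [CommRing R] (τ : L →* (Matrix n n R)ˣ) (g : L) : R :=
  ((τ g : (Matrix n n R)ˣ) : Matrix n n R).trace

theorem tr_mp {R S : Type*} [CommRing R] [CommRing S] (f : R →+* S)
    (τ : L →* (Matrix n n R)ˣ) (g : L) : tr (mp f τ) g = f (tr τ g) := by
  rw [tr, tr, mp_apply, Matrix.trace, Matrix.trace, map_sum]
  rfl

/-- **Fixed spaces of coprime subgroups are preserved by reduction.** -/
theorem finrank_fixM_mp {A K k : Type*} [CommRing A] [Field K] [Field k] (ι : A →+* K)
    (hι : Function.Injective ι) (φ : A →+* k) (τ : L →* (Matrix n n A)ˣ) (Y : Subgroup L)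
    (hY : IsUnit (Nat.card Y : A)) :
    finrank K (fixM (mp ι τ) Y) = finrank k (fixM (mp φ τ) Y) := by
  obtain ⟨u, hu⟩ := hY
  have hc : ((u⁻¹ : Aˣ) : A) * (Nat.card Y : A) = 1 := by rw [← hu, Units.inv_mul]
  rw [finrank_fixM _ Y (c := ι ((u⁻¹ : Aˣ) : A)) (by rw [← map_natCast ι, ← map_mul, hc, map_one]),
    finrank_fixM _ Y (c := φ ((u⁻¹ : Aˣ) : A)) (by rw [← map_natCast φ, ← map_mul, hc, map_one]),
    mp, mp, ← proj_map, ← proj_map]
  exact rk_map ι hι φ (proj_idem τ Y hc)

/-- the trace of an idempotent is its rank -/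
theorem trace_idem {K : Type*} [Field K] {e : Matrix n n K} (he : e * e = e) :
    e.trace = (rk e : K) := by
  have h1 : IsIdempotentElem (Matrix.toLin' e) := by
    rw [IsIdempotentElem, Module.End.mul_eq_comp, ← Matrix.toLin'_mul, he]
  rw [rk, ← (LinearMap.IsIdempotentElem.isProj_range _ h1).trace, Matrix.trace_toLin'_eq]

/-- the sum of the traces over a subgroup -/
theorem sum_trace {K : Type*} [Field K] (τ : L →* (Matrix n n K)ˣ) (Y : Subgroup L)
    (hY : (Nat.card Y : K) ≠ 0) :
    ∑ᶠ x : Y, tr τ x = (Nat.card Y : K) * (finrank K (fixM τ Y) : K) := by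
  have := Fintype.ofFinite Y
  have hc : (Nat.card Y : K)⁻¹ * (Nat.card Y : K) = 1 := inv_mul_cancel₀ hY
  rw [finrank_fixM τ Y hc, ← trace_idem (proj_idem τ Y hc), proj, Matrix.trace_smul,
    smul_eq_mul, ← mul_assoc, mul_inv_cancel₀ hY, one_mul, finsum_eq_sum_of_fintype,
    finsum_eq_sum_of_fintype, Matrix.trace_sum]
  rfl

end proj

/-! ### Commutants -/

section kron

open scoped Kronecker

variable {L : Type*} [Group L] [Finite L] {n : Type*} [Fintype n] [DecidableEq n]

/-- the conjugation representation on matrices -/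
noncomputable def kr {R : Type*} [CommRing R] (τ : L →* (Matrix n n R)ˣ) :
    L →* (Matrix (n × n) (n × n) R)ˣ :=
  MonoidHom.toHomUnits
    { toFun := fun g => ((τ g : (Matrix n n R)ˣ) : Matrix n n R) ⊗ₖ
        ((τ g⁻¹ : (Matrix n n R)ˣ) : Matrix n n R).transpose
      map_one' := by
        simp
      map_mul' := fun a b => by
        rw [← Matrix.mul_kronecker_mul, ← Matrix.transpose_mul, mul_inv_rev, map_mul, map_mul,
          Units.val_mul, Units.val_mul] }

omit [Finite L] in
theorem kr_apply {R : Type*} [CommRing R] (τ : L →* (Matrix n n R)ˣ) (g : L) :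
    ((kr τ g : (Matrix (n × n) (n × n) R)ˣ) : Matrix (n × n) (n × n) R) =
      ((τ g : (Matrix n n R)ˣ) : Matrix n n R) ⊗ₖ
        ((τ g⁻¹ : (Matrix n n R)ˣ) : Matrix n n R).transpose := rfl

theorem kr_mp {R S : Type*} [CommRing R] [CommRing S] (f : R →+* S)
    (τ : L →* (Matrix n n R)ˣ) : kr (mp f τ) = mp f (kr τ) := by
  ext g ⟨i, j⟩ ⟨k, l⟩
  rw [kr_apply, mp_apply, mp_apply, mp_apply, kr_apply]
  simp [Matrix.kroneckerMap_apply]

theorem tr_kr {R : Type*} [CommRing R] (τ : L →* (Matrix n n R)ˣ) (g : L) :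
    tr (kr τ) g = tr τ g * tr τ g⁻¹ := by
  rw [tr, tr, tr, kr_apply, Matrix.trace_kronecker, Matrix.trace_transpose]

/-- fixed vectors of the conjugation representation are commuting matrices -/
theorem mem_fixM_kr {K : Type*} [Field K] (τ : L →* (Matrix n n K)ˣ) (v : n × n → K) :
    v ∈ fixM (kr τ) ⊤ ↔ ∀ g : L, ((τ g : (Matrix n n K)ˣ) : Matrix n n K) *
      Matrix.of (fun i j => v (i, j)) = Matrix.of (fun i j => v (i, j)) *
        ((τ g : (Matrix n n K)ˣ) : Matrix n n K) := by
  have key : ∀ g : L, ((kr τ g : (Matrix (n × n) (n × n) K)ˣ) : Matrix (n × n) (n × n) K).mulVec v =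
      fun ij => (((τ g : (Matrix n n K)ˣ) : Matrix n n K) * Matrix.of (fun i j => v (i, j)) *
        ((τ g⁻¹ : (Matrix n n K)ˣ) : Matrix n n K)) ij.1 ij.2 := by
    intro g
    ext ⟨i, j⟩
    rw [kr_apply]
    simp only [Matrix.mulVec, dotProduct, Matrix.kroneckerMap_apply, Matrix.transpose_apply,
      Matrix.mul_apply, Matrix.of_apply, Fintype.sum_prod_type, Finset.sum_mul]
    rw [Finset.sum_comm]
    refine Finset.sum_congr rfl fun l _ => Finset.sum_congr rfl fun k _ => ?_
    ring
  have hinv : ∀ g : L, ((τ g⁻¹ : (Matrix n n K)ˣ) : Matrix n n K) *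
      ((τ g : (Matrix n n K)ˣ) : Matrix n n K) = 1 := by
    intro g
    rw [← Units.val_mul, ← map_mul, inv_mul_cancel, map_one, Units.val_one]
  have hinv' : ∀ g : L, ((τ g : (Matrix n n K)ˣ) : Matrix n n K) *
      ((τ g⁻¹ : (Matrix n n K)ˣ) : Matrix n n K) = 1 := by
    intro g
    rw [← Units.val_mul, ← map_mul, mul_inv_cancel, map_one, Units.val_one]
  constructor
  · intro h g
    have h1 := h g trivial
    rw [key] at h1
    have h2 : ((τ g : (Matrix n n K)ˣ) : Matrix n n K) * Matrix.of (fun i j => v (i, j)) *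
        ((τ g⁻¹ : (Matrix n n K)ˣ) : Matrix n n K) = Matrix.of (fun i j => v (i, j)) := by
      ext i j
      exact congrFun h1 (i, j)
    calc _ = ((τ g : (Matrix n n K)ˣ) : Matrix n n K) * Matrix.of (fun i j => v (i, j)) *
        (((τ g⁻¹ : (Matrix n n K)ˣ) : Matrix n n K) * ((τ g : (Matrix n n K)ˣ) : Matrix n n K)) := by
          rw [hinv, mul_one]
      _ = _ := by rw [← mul_assoc, h2]
  · intro h g _
    rw [key]
    ext ⟨i, j⟩
    rw [h g, mul_assoc, hinv', mul_one]
    rfl

end kron

/-! ### The lift -/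

section lift

variable {L : Type*} [Group L] [Finite L]

/-- **Complex lift of a coprime linear group over a finite field**: fixed spaces and the
commutant keep their dimensions; every integral polynomial relation between traces is
preserved. -/
theorem exists_lift_full {F : Type*} [Field F] [Finite F] {p : ℕ} [Fact p.Prime] [CharP F p]
    (hcop : ¬ p ∣ Nat.card L) {n : ℕ} (σ : L →* (Matrix (Fin n) (Fin n) F)ˣ) :
    ∃ ρ : L →* (Matrix (Fin n) (Fin n) ℂ)ˣ,
      (∀ Y : Subgroup L, finrank ℂ (fixM ρ Y) = finrank F (fixM σ Y)) ∧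
      finrank ℂ (fixM (kr ρ) ⊤) = finrank F (fixM (kr σ) ⊤) ∧
      ∀ P : MvPolynomial L ℤ, MvPolynomial.aeval (tr ρ) P = 0 →
        MvPolynomial.aeval (tr σ) P = 0 := by
  let _ : Algebra (ZMod p) F := ZMod.algebra F p
  have hfin : Module.Finite (ZMod p) F := Module.Finite.of_finite
  let j : F →ₐ[ZMod p] SmallSimple.WittRing.kbar p := IsAlgClosed.lift
  let φ : SmallSimple.WittRing.A p →+* SmallSimple.WittRing.kbar p :=
    WittVector.constantCoeff (p := p) (R := SmallSimple.WittRing.kbar p)
  have hres : H831.RepLift.Res p φ := H831.RepLift.res_witt p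
  obtain ⟨τ, hτ⟩ := H831.RepLift.exists_lift hres (D := L) (by
    intro h
    exact hcop ((CharP.cast_eq_zero_iff (SmallSimple.WittRing.kbar p) p _).1 h))
    (mp (j : F →+* SmallSimple.WittRing.kbar p) σ)
  obtain ⟨ι, hι⟩ := SmallSimple.WittRing.exists_embedding p
  have hτ' : mp φ τ = mp (j : F →+* SmallSimple.WittRing.kbar p) σ := by
    ext g
    rw [← hτ]
    rfl
  have hY : ∀ Y : Subgroup L, ¬ p ∣ Nat.card Y := fun Y h =>
    hcop (h.trans Y.card_subgroup_dvd_card)
  have hYk : ∀ Y : Subgroup L, (Nat.card Y : SmallSimple.WittRing.kbar p) ≠ 0 := by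
    intro Y h
    exact hY Y ((CharP.cast_eq_zero_iff (SmallSimple.WittRing.kbar p) p _).1 h)
  have hYA : ∀ Y : Subgroup L, IsUnit (Nat.card Y : SmallSimple.WittRing.A p) := by
    intro Y
    apply hres.isUnit
    rw [map_natCast]
    exact hYk Y
  have hYF : ∀ Y : Subgroup L, IsUnit (Nat.card Y : F) := by
    intro Y
    rw [isUnit_iff_ne_zero]
    intro h
    exact hY Y ((CharP.cast_eq_zero_iff F p _).1 h)
  have hid : ∀ {m : Type} [Fintype m] [DecidableEq m] (σ : L →* (Matrix m m F)ˣ),
      mp (RingHom.id F) σ = σ := by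
    intro m _ _ σ
    ext g i k
    rfl
  have hj : ∀ {m : Type} [Fintype m] [DecidableEq m] (σ : L →* (Matrix m m F)ˣ)
      (Y : Subgroup L), finrank (SmallSimple.WittRing.kbar p)
        (fixM (mp (j : F →+* SmallSimple.WittRing.kbar p) σ) Y) = finrank F (fixM σ Y) := by
    intro m _ _ σ Y
    rw [← finrank_fixM_mp (RingHom.id F) Function.injective_id
      (j : F →+* SmallSimple.WittRing.kbar p) σ Y (hYF Y), hid]
  refine ⟨mp ι τ, ?_, ?_, ?_⟩
  · intro Y
    rw [finrank_fixM_mp ι hι φ τ Y (hYA Y), hτ', hj]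
  · rw [kr_mp, finrank_fixM_mp ι hι φ (kr τ) ⊤ (hYA ⊤), ← kr_mp, hτ', kr_mp, hj]
  · intro P hP
    have h1 : MvPolynomial.aeval (tr τ) P = 0 := by
      apply hι
      rw [map_zero, ← hP, MvPolynomial.aeval_def, MvPolynomial.aeval_def, MvPolynomial.hom_eval₂]
      congr 1
      · exact RingHom.ext_int _ _
      · ext g
        exact (tr_mp ι τ g).symm
    have h2 : φ (MvPolynomial.aeval (tr τ) P) = 
        (j : F →+* SmallSimple.WittRing.kbar p) (MvPolynomial.aeval (tr σ) P) := by
      rw [MvPolynomial.aeval_def, MvPolynomial.aeval_def, MvPolynomial.hom_eval₂,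
        MvPolynomial.hom_eval₂]
      congr 1
      · exact RingHom.ext_int _ _
      · ext g
        change φ (tr τ g) = (j : F →+* SmallSimple.WittRing.kbar p) (tr σ g)
        rw [← tr_mp, ← tr_mp, hτ']
    rw [h1, map_zero] at h2
    exact ((map_eq_zero _).1 h2.symm)

end lift

end Cfsg.Agent.H828.HT.Lift
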