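import Cfsg.Agent.H828.HT.Lift
import Cfsg.Agent.H828.HT.Def
import Mathlib.RingTheory.LittleWedderburn
import Mathlib.RingTheory.SimpleModule.Basic

/-!
# Irreducible modules over the prime field

`exists_field` : the endomorphism field and density.
-/

set_option autoImplicit false
set_option linter.unusedSectionVars false

open Polynomial Module

namespace Cfsg.Agent.H828.HT.Wrap

open Cfsg.Agent.H828.HT.Lift

universe u v

section field

variable {p : ℕ} [Fact p.Prime] {V : Type v} [AddCommGroup V] [Module (ZMod p) V]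
  [Finite V] [Nontrivial V] {L : Type u} [Group L]

/-- **The endomorphism field of an irreducible module and density.** -/
theorem exists_field (δ : L →* (V ≃ₗ[ZMod p] V))
    (hirr : ∀ W : Submodule (ZMod p) V, (∀ g, ∀ w ∈ W, δ g w ∈ W) → W = ⊥ ∨ W = ⊤) :
    ∃ (K : Type v) (_ : Field K) (_ : Module K V), Finite K ∧ CharP K p ∧
      (∀ (c : K) (g : L) (v : V), δ g (c • v) = c • δ g v) ∧
      (∀ f : V →+ V, (∀ g v, f (δ g v) = δ g (f v)) → ∃ c : K, ∀ v, f v = c • v) ∧
      (∀ f : V →ₗ[K] V,
        f ∈ AddSubgroup.closure {h : V →ₗ[K] V | ∃ g : L, ∀ v, h v = δ g v}) := by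
  let D : L →* Module.End (ZMod p) V :=
    { toFun := fun g => (δ g : V →ₗ[ZMod p] V)
      map_one' := by rw [map_one]; rfl
      map_mul' := fun a b => by rw [map_mul]; rfl }
  let R : Subalgebra (ZMod p) (Module.End (ZMod p) V) := Algebra.adjoin (ZMod p) (Set.range D)
  have hD : ∀ g, D g ∈ R := fun g => Algebra.subset_adjoin ⟨g, rfl⟩
  have hRsmul : ∀ (r : R) (v : V), r • v = (r : Module.End (ZMod p) V) v := fun r v => rfl
  have hsimple : IsSimpleModule R V := by
    refine { exists_pair_ne := ⟨⊥, ⊤, bot_ne_top⟩, eq_bot_or_eq_top := ?_ }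
    intro W
    let W' : Submodule (ZMod p) V :=
      { carrier := W
        add_mem' := fun ha hb => W.add_mem ha hb
        zero_mem' := W.zero_mem
        smul_mem' := fun c v hv => by
          have h1 := W.smul_mem (algebraMap (ZMod p) R c) hv
          rw [hRsmul] at h1
          exact h1 }
    rcases hirr W' (fun g w hw => by
      have h1 := W.smul_mem (⟨D g, hD g⟩ : R) (x := w) hw
      exact h1) with h | h
    · left
      rw [eq_bot_iff]
      intro w hw
      have h1 : w ∈ W' := hw
      rw [h] at h1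
      exact h1
    · right
      rw [eq_top_iff]
      intro w _
      have h1 : w ∈ W' := by rw [h]; trivial
      exact h1
  classical
  have hfin : Finite (Module.End R V) :=
    Finite.of_injective (fun f => (f : V → V)) DFunLike.coe_injective
  let F : Field (Module.End R V) := littleWedderburn (Module.End R V)
  let M : @Module (Module.End R V) V F.toSemiring _ := Module.End.applyModule
  have hKsmul : ∀ (c : Module.End R V) (v : V), c • v = c v := fun c v => rfl
  have hlin : ∀ (c : Module.End R V) (g : L) (v : V), δ g (c • v) = c • δ g v := by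
    intro c g v
    rw [hKsmul, hKsmul]
    exact (c.map_smul (⟨D g, hD g⟩ : R) v).symm
  have hchar : CharP (Module.End R V) p := by
    refine ⟨fun n => ?_⟩
    constructor
    · intro h
      obtain ⟨v, hv⟩ := exists_ne (0 : V)
      have h1 : (n : ZMod p) • v = 0 := by
        rw [Nat.cast_smul_eq_nsmul]
        have h2 : ((n : Module.End R V)) v = 0 := by rw [h]; rfl
        rwa [Module.End.natCast_apply] at h2
      rcases smul_eq_zero.1 h1 with h2 | h2
      · exact (ZMod.natCast_eq_zero_iff n p).1 h2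
      · exact absurd h2 hv
    · intro h
      ext v
      rw [Module.End.natCast_apply, ← Nat.cast_smul_eq_nsmul (ZMod p),
        (ZMod.natCast_eq_zero_iff n p).2 h, zero_smul]
      rfl
  have hcomm : ∀ f : V →+ V, (∀ g v, f (δ g v) = δ g (f v)) →
      ∃ c : Module.End R V, ∀ v, f v = c • v := by
    intro f hf
    have h1 : ∀ r : R, ∀ v, f ((r : Module.End (ZMod p) V) v) =
        (r : Module.End (ZMod p) V) (f v) := by
      intro r
      refine Algebra.adjoin_induction (p := fun (x : Module.End (ZMod p) V) _ =>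
        ∀ v, f (x v) = x (f v)) ?_ ?_ ?_ ?_ r.2
      · rintro _ ⟨g, rfl⟩ v
        exact hf g v
      · intro a v
        exact ZMod.map_smul f a v
      · intro x y _ _ hx hy v
        rw [LinearMap.add_apply, LinearMap.add_apply, map_add, hx, hy]
      · intro x y _ _ hx hy v
        rw [Module.End.mul_apply, Module.End.mul_apply, hx, hy]
    exact ⟨{ toFun := f, map_add' := f.map_add, map_smul' := h1 }, fun v => rfl⟩
  refine ⟨Module.End R V, F, M, hfin, hchar, hlin, hcomm, ?_⟩
  intro f
  have := Fintype.ofFinite V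
  obtain ⟨r, hr⟩ := jacobson_density (R := R) (M := V) f Finset.univ
  have hr' : ∀ v, f v = (r : Module.End (ZMod p) V) v := fun v => hr v (Finset.mem_univ v)
  have hspan : (r : Module.End (ZMod p) V) ∈ Submodule.span (ZMod p) (Set.range D) := by
    have h1 : (r : Module.End (ZMod p) V) ∈ Subalgebra.toSubmodule
      (Algebra.adjoin (ZMod p) (Set.range D)) := r.2
    rwa [Algebra.adjoin_eq_span, ← MonoidHom.coe_mrange, Submonoid.closure_eq] at h1
  have key : ∃ h : V →ₗ[Module.End R V] V, (∀ v, h v = (r : Module.End (ZMod p) V) v) ∧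
      h ∈ AddSubgroup.closure {h : V →ₗ[Module.End R V] V | ∃ g : L, ∀ v, h v = δ g v} := by
    refine Submodule.span_induction (p := fun (x : Module.End (ZMod p) V) _ =>
      ∃ h : V →ₗ[Module.End R V] V, (∀ v, h v = x v) ∧
        h ∈ AddSubgroup.closure {h : V →ₗ[Module.End R V] V | ∃ g : L, ∀ v, h v = δ g v})
      ?_ ?_ ?_ ?_ hspan
    · rintro _ ⟨g, rfl⟩
      exact ⟨{ toFun := δ g, map_add' := map_add _, map_smul' := fun c v => hlin c g v },
        fun v => rfl, AddSubgroup.subset_closure ⟨g, fun v => rfl⟩⟩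
    · exact ⟨0, fun v => rfl, zero_mem _⟩
    · rintro x y _ _ ⟨a, ha, ha'⟩ ⟨b, hb, hb'⟩
      exact ⟨a + b, fun v => by rw [LinearMap.add_apply, LinearMap.add_apply, ha, hb],
        add_mem ha' hb'⟩
    · rintro c x _ ⟨a, ha, ha'⟩
      refine ⟨c.val • a, fun v => ?_, nsmul_mem ha' _⟩
      rw [LinearMap.smul_apply, LinearMap.smul_apply, ha, ← Nat.cast_smul_eq_nsmul (ZMod p),
        ZMod.natCast_zmod_val]
  obtain ⟨h, hh, hh'⟩ := key
  have : f = h := LinearMap.ext fun v => by rw [hr', hh]
  rwa [this]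

end field

section matrix

variable {K : Type v} [Field K] {V : Type v} [AddCommGroup V] [Module K V]
  [FiniteDimensional K V] {L : Type u} [Group L] [Finite L]

/-- matrices of a linear action -/
noncomputable def mx (D : L →* Module.End K V) : 
    L →* (Matrix (Fin (finrank K V)) (Fin (finrank K V)) K)ˣ :=
  MonoidHom.toHomUnits ((LinearMap.toMatrixAlgEquiv (finBasis K V)).toRingEquiv.toRingHom.toMonoidHom.comp D)

theorem mx_apply (D : L →* Module.End K V) (g : L) :
    ((mx D g : (Matrix (Fin (finrank K V)) (Fin (finrank K V)) K)ˣ) :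
      Matrix (Fin (finrank K V)) (Fin (finrank K V)) K) =
      LinearMap.toMatrix (finBasis K V) (finBasis K V) (D g) := rfl

theorem tr_mx (D : L →* Module.End K V) (g : L) : tr (mx D) g = LinearMap.trace K V (D g) := by
  rw [tr, mx_apply, LinearMap.trace_eq_matrix_trace K (finBasis K V)]

/-- fixed spaces -/
theorem mem_fixM_mx (D : L →* Module.End K V) (Y : Subgroup L) (v : V) :
    (finBasis K V).equivFun v ∈ fixM (mx D) Y ↔ ∀ y ∈ Y, D y v = v := by
  have key : ∀ y, (((mx D y : (Matrix (Fin (finrank K V)) (Fin (finrank K V)) K)ˣ) :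
      Matrix (Fin (finrank K V)) (Fin (finrank K V)) K)).mulVec ((finBasis K V).equivFun v) =
      (finBasis K V).equivFun (D y v) := by
    intro y
    rw [mx_apply]
    exact LinearMap.toMatrix_mulVec_repr _ _ (D y) v
  constructor
  · intro h y hy
    have h1 := h y hy
    rw [key] at h1
    exact (finBasis K V).equivFun.injective h1
  · intro h y hy
    rw [key, h y hy]

theorem card_fix (D : L →* Module.End K V) (Y : Subgroup L) [Finite K] :
    Nat.card {v : V // ∀ y ∈ Y, D y v = v} = Nat.card K ^ finrank K (fixM (mx D) Y) := by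
  have := Fintype.ofFinite K
  rw [← Module.natCard_eq_pow_finrank (K := K) (V := fixM (mx D) Y)]
  refine Nat.card_congr ⟨fun v => ⟨(finBasis K V).equivFun v.1, (mem_fixM_mx D Y v.1).2 v.2⟩,
    fun w => ⟨(finBasis K V).equivFun.symm w.1, (mem_fixM_mx D Y _).1 (by
      rw [LinearEquiv.apply_symm_apply]; exact w.2)⟩, ?_, ?_⟩
  · intro v
    simp
  · intro w
    exact Subtype.ext (LinearEquiv.apply_symm_apply _ _)

/-- the commutant -/
theorem finrank_kr_mx (D : L →* Module.End K V) [Nontrivial V]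
    (hD : ∀ f : Module.End K V, (∀ g, D g * f = f * D g) → ∃ c : K, f = c • 1) :
    finrank K (fixM (kr (mx D)) ⊤) = 1 := by
  have hpos : 0 < finrank K V := finrank_pos
  let o : fixM (kr (mx D)) ⊤ := ⟨fun ij => if ij.1 = ij.2 then 1 else 0, by
    rw [mem_fixM_kr]
    intro g
    have h1 : Matrix.of (fun i j : Fin (finrank K V) => if i = j then (1 : K) else 0) = 1 := by
      ext i j
      rw [Matrix.of_apply, Matrix.one_apply]
    rw [h1, mul_one, one_mul]⟩
  have ho : o ≠ 0 := by
    intro h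
    have h1 := congrFun (congrArg Subtype.val h) (⟨0, hpos⟩, ⟨0, hpos⟩)
    simp [o] at h1
  rw [finrank_eq_one_iff_of_nonzero' o ho]
  rintro ⟨w, hw⟩
  rw [mem_fixM_kr] at hw
  obtain ⟨c, hc⟩ := hD (Matrix.toLin (finBasis K V) (finBasis K V) (Matrix.of fun i j => w (i, j)))
    (by
      intro g
      have h1 := hw g
      rw [mx_apply] at h1
      have h2 := congrArg (Matrix.toLin (finBasis K V) (finBasis K V)) h1
      rw [Matrix.toLin_mul _ (finBasis K V), Matrix.toLin_mul _ (finBasis K V),
        Matrix.toLin_toMatrix] at h2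
      exact h2)
  refine ⟨c, ?_⟩
  apply Subtype.ext
  have h3 := congrArg (LinearMap.toMatrix (finBasis K V) (finBasis K V)) hc
  rw [LinearMap.toMatrix_toLin, map_smul, LinearMap.toMatrix_one] at h3
  ext ⟨i, j⟩
  have h4 := congrFun (congrFun h3 i) j
  rw [Matrix.of_apply] at h4
  change (c • o).1 (i, j) = w (i, j)
  rw [h4]
  simp [o, Matrix.one_apply]

end matrix

section complex

variable {L : Type u} [Group L]

open Characters.Core in
theorem isCharacter_tr {n : ℕ} (ρ : L →* (Matrix (Fin n) (Fin n) ℂ)ˣ) :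
    IsCharacter L (tr ρ) := by
  refine ⟨n, (Matrix.toLinAlgEquiv' : Matrix (Fin n) (Fin n) ℂ ≃ₐ[ℂ]
    _).toAlgHom.toRingHom.toMonoidHom.comp ((Units.coeHom _).comp ρ), ?_⟩
  ext g
  exact Matrix.trace_toLin'_eq _

theorem isIrr_tr [Finite L] {n : ℕ} {ρ : L →* (Matrix (Fin n) (Fin n) ℂ)ˣ}
    (h : finrank ℂ (fixM (kr ρ) ⊤) = 1) : IsIrrCharacter L (tr ρ) := by
  have := Fintype.ofFinite L
  apply Characters.Core.isIrr_of_classInner_self (isCharacter_tr ρ)
  have hne : (Nat.card L : ℂ) ≠ 0 := Nat.cast_ne_zero.2 Nat.card_pos.ne'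
  have h1 := sum_trace (kr ρ) ⊤ (by rwa [Subgroup.card_top])
  rw [h, Nat.cast_one, mul_one, Subgroup.card_top] at h1
  rw [Characters.Core.classInner_def]
  have h2 : ∑ g : L, tr ρ g * (starRingEnd ℂ) (tr ρ g) = (Nat.card L : ℂ) := by
    rw [← h1, ← finsum_eq_sum_of_fintype]
    refine (finsum_comp_equiv (Subgroup.topEquiv (G := L)).toEquiv.symm (f := fun x : (⊤ : Subgroup L) => tr (kr ρ) (x : L))).symm.trans ?_ |>.symm
    refine finsum_congr fun g => ?_
    rw [← Characters.Core.isCharacter_apply_inv (isCharacter_tr ρ)]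
    exact tr_kr ρ g
  rw [h2, inv_mul_cancel₀ hne]

end complex

/-- the kernel is visible on fixed spaces -/
theorem eq_one_iff {K : Type*} [Field K] {L : Type*} [Group L] {n : Type*} [Fintype n]
    [DecidableEq n] (τ : L →* (Matrix n n K)ˣ) (g : L) :
    τ g = 1 ↔ finrank K (fixM τ (Subgroup.zpowers g)) = Fintype.card n := by
  constructor
  · intro h
    have : fixM τ (Subgroup.zpowers g) = ⊤ := by
      rw [eq_top_iff]
      rintro w - y ⟨k, rfl⟩
      change ((τ (g ^ k) : (Matrix n n K)ˣ) : Matrix n n K).mulVec w = w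
      rw [map_zpow, h, one_zpow, Units.val_one, Matrix.one_mulVec]
    rw [this, finrank_top, Module.finrank_fintype_fun_eq_card]
  · intro h
    have : fixM τ (Subgroup.zpowers g) = ⊤ := by
      apply Submodule.eq_top_of_finrank_eq
      rw [h, Module.finrank_fintype_fun_eq_card]
    apply Units.ext
    rw [Units.val_one, ← Matrix.toLin'.injective.eq_iff, Matrix.toLin'_one]
    refine LinearMap.ext fun w => ?_
    have hw : w ∈ fixM τ (Subgroup.zpowers g) := by rw [this]; trivial
    exact hw g (Subgroup.mem_zpowers g)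

section main

variable {p : ℕ} [Fact p.Prime] {V : Type v} [AddCommGroup V] [Module (ZMod p) V]
  [Finite V] [Nontrivial V] {L : Type u} [Group L] [Finite L]

/-- **Irreducible coprime modules over the prime field and complex irreducible
representations.** `K` is the endomorphism field; `V` is over `K` the reduction of the
irreducible complex representation `ρ` of degree `dim_K V`; for every subgroup `Y` the fixed
space has `|K| ^ [ρ_Y, 1]` elements; `t` is the trace function over `K`, it satisfies every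
integral polynomial relation satisfied by the complex character, and its values span `K`. -/
theorem exists_complex_irr (δ : L →* (V ≃ₗ[ZMod p] V)) (hcop : ¬ p ∣ Nat.card L)
    (hirr : ∀ W : Submodule (ZMod p) V, (∀ g, ∀ w ∈ W, δ g w ∈ W) → W = ⊥ ∨ W = ⊤) :
    ∃ (K : Type v) (_ : Field K) (_ : Finite K) (_ : CharP K p) (_ : Module K V)
      (d : ℕ) (ρ : L →* (Matrix (Fin d) (Fin d) ℂ)ˣ) (t : L → K),
      d = finrank K V ∧ 0 < d ∧ Nat.card V = Nat.card K ^ d ∧
      (∀ (c : K) (g : L) (v : V), δ g (c • v) = c • δ g v) ∧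
      (∀ f : V →+ V, (∀ g v, f (δ g v) = δ g (f v)) → ∃ c : K, ∀ v, f v = c • v) ∧
      IsIrrCharacter L (tr ρ) ∧
      (∀ Y : Subgroup L, Nat.card {v : V // ∀ y ∈ Y, δ y v = v} =
        Nat.card K ^ finrank ℂ (fixM ρ Y)) ∧
      (∀ Y : Subgroup L, ∑ᶠ y : Y, tr ρ y = (Nat.card Y : ℂ) * (finrank ℂ (fixM ρ Y) : ℂ)) ∧
      (∀ g, ρ g = 1 ↔ δ g = 1) ∧
      (∀ P : MvPolynomial L ℤ, MvPolynomial.aeval (tr ρ) P = 0 → MvPolynomial.aeval t P = 0) ∧
      AddSubgroup.closure (Set.range t) = ⊤ := by
  obtain ⟨K, _, _, hfin, hchar, hlin, hcomm, hdens⟩ := exists_field δ hirr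
  have := Fintype.ofFinite K
  have hfd : FiniteDimensional K V := Module.Finite.of_finite
  let D : L →* Module.End K V :=
    { toFun := fun g => { toFun := δ g, map_add' := map_add _, map_smul' := fun c v => hlin c g v }
      map_one' := by ext v; change δ 1 v = v; rw [map_one]; rfl
      map_mul' := fun a b => by ext v; change δ (a * b) v = δ a (δ b v); rw [map_mul]; rfl }
  have hD : ∀ g v, D g v = δ g v := fun g v => rfl
  obtain ⟨ρ, h1, h2, h3⟩ := exists_lift_full (p := p) hcop (mx D)
  rw [finrank_kr_mx D (by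
    intro f hf
    obtain ⟨c, hc⟩ := hcomm f.toAddMonoidHom (fun g v => (LinearMap.congr_fun (hf g) v).symm)
    exact ⟨c, LinearMap.ext fun v => hc v⟩)] at h2
  have hpos : 0 < finrank K V := finrank_pos
  have hne : ∀ Y : Subgroup L, (Nat.card Y : ℂ) ≠ 0 := fun Y => 
    Nat.cast_ne_zero.2 Nat.card_pos.ne'
  refine ⟨K, inferInstance, hfin, hchar, inferInstance, finrank K V, ρ, tr (mx D), rfl, hpos,
    Module.natCard_eq_pow_finrank, hlin, hcomm, isIrr_tr h2, ?_, ?_, ?_, h3, ?_⟩
  · intro Y
    rw [h1, ← card_fix D Y]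
    rfl
  · intro Y
    exact sum_trace ρ Y (hne Y)
  · intro g
    rw [eq_one_iff, h1, ← eq_one_iff, ← map_one (mx D)]
    constructor
    · intro h
      ext v
      have h5 : D g = D 1 := by
        have h6 := congrArg (fun x : (Matrix (Fin (finrank K V)) (Fin (finrank K V)) K)ˣ =>
          (x : Matrix (Fin (finrank K V)) (Fin (finrank K V)) K)) h
        simp only [mx_apply] at h6
        exact (LinearMap.toMatrix (finBasis K V) (finBasis K V)).injective h6
      have h7 := LinearMap.congr_fun h5 v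
      rw [hD, hD, map_one] at h7
      exact h7
    · intro h
      have h5 : D g = D 1 := by
        ext v
        rw [hD, hD, h, map_one]
      apply Units.ext
      rw [mx_apply, mx_apply, h5]
  · rw [eq_top_iff]
    rintro c -
    have : Nonempty (Fin (finrank K V)) := ⟨⟨0, hpos⟩⟩
    obtain ⟨M, hM⟩ := Matrix.trace_surjective (n := Fin (finrank K V)) (R := K) c
    have h5 : LinearMap.trace K V (Matrix.toLin (finBasis K V) (finBasis K V) M) = c := by
      rw [LinearMap.trace_eq_matrix_trace K (finBasis K V), LinearMap.toMatrix_toLin, hM]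
    have h6 : (LinearMap.trace K V).toAddMonoidHom
        (Matrix.toLin (finBasis K V) (finBasis K V) M) ∈
        (AddSubgroup.closure {h : V →ₗ[K] V | ∃ g : L, ∀ v, h v = δ g v}).map
          (LinearMap.trace K V).toAddMonoidHom := ⟨_, hdens _, rfl⟩
    rw [AddMonoidHom.map_closure] at h6
    have h7 : (LinearMap.trace K V).toAddMonoidHom
        (Matrix.toLin (finBasis K V) (finBasis K V) M) = c := h5
    rw [h7] at h6
    refine AddSubgroup.closure_mono ?_ h6
    rintro _ ⟨h, ⟨g, hg⟩, rfl⟩
    refine ⟨g, ?_⟩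
    have h8 : h = D g := LinearMap.ext fun v => hg v
    rw [tr_mx, h8]
    rfl

end main

section cor

variable {p : ℕ} [Fact p.Prime] {K : Type v} [Field K] [Finite K] [CharP K p]
  {L : Type u}

/-- a field of characteristic `p` has `p ^ e` elements -/
theorem card_field (p : ℕ) [Fact p.Prime] (K : Type v) [Field K] [Finite K] [CharP K p] :
    ∃ e, 0 < e ∧ Nat.card K = p ^ e := by
  have := Fintype.ofFinite K
  obtain ⟨n, _, h⟩ := FiniteField.card K p
  exact ⟨n, n.pos, by rw [Nat.card_eq_fintype_card, h]⟩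

/-- the endomorphism field is small if the trace values are in a small lattice -/
theorem card_field_le {χ : L → ℂ} {t : L → K}
    (h3 : ∀ P : MvPolynomial L ℤ, MvPolynomial.aeval χ P = 0 → MvPolynomial.aeval t P = 0)
    (h4 : AddSubgroup.closure (Set.range t) = ⊤) {k : ℕ} (s : Fin k → L)
    (hs : ∀ g, ∃ (a : ℤ) (b : Fin k → ℤ), χ g = a + ∑ i, b i * χ (s i)) :
    Nat.card K ≤ p ^ (k + 1) := by
  let _ : Algebra (ZMod p) K := ZMod.algebra K p
  have h5 : ∀ g, ∃ (a : ℤ) (b : Fin k → ℤ), t g = a + ∑ i, b i * t (s i) := by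
    intro g
    obtain ⟨a, b, hab⟩ := hs g
    refine ⟨a, b, ?_⟩
    have h6 := h3 (MvPolynomial.X g - (MvPolynomial.C a +
      ∑ i, MvPolynomial.C (b i) * MvPolynomial.X (s i))) (by
        simp only [map_sub, map_add, map_sum, map_mul, MvPolynomial.aeval_X, eq_intCast,
          map_intCast]
        rw [hab, sub_self])
    simp only [map_sub, map_add, map_sum, map_mul, MvPolynomial.aeval_X, eq_intCast,
      map_intCast] at h6
    exact sub_eq_zero.1 h6
  let f : (ZMod p) × (Fin k → ZMod p) →+ K :=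
    { toFun := fun x => algebraMap (ZMod p) K x.1 +
        ∑ i, algebraMap (ZMod p) K (x.2 i) * t (s i)
      map_zero' := by simp
      map_add' := fun x y => by
        simp only [Prod.fst_add, Prod.snd_add, Pi.add_apply, map_add, add_mul,
          Finset.sum_add_distrib]
        ring }
  have hf : f.range = ⊤ := by
    rw [eq_top_iff, ← h4, AddSubgroup.closure_le]
    rintro _ ⟨g, rfl⟩
    obtain ⟨a, b, hab⟩ := h5 g
    refine ⟨((a : ZMod p), fun i => (b i : ZMod p)), ?_⟩
    rw [hab]
    simp [f]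
  have hsurj : Function.Surjective f := AddMonoidHom.range_eq_top.1 hf
  have h7 := Nat.card_le_card_of_surjective f hsurj
  rw [Nat.card_prod, Nat.card_zmod, Nat.card_fun, Nat.card_zmod, Nat.card_fin] at h7
  rw [pow_succ, mul_comm]
  exact h7

end cor

section cent

variable {p : ℕ} [Fact p.Prime] {V : Type v} [AddCommGroup V] [Module (ZMod p) V]
  [Nontrivial V] {K : Type v} [Field K] [Finite K] [Module K V]

/-- scalar multiplications -/
def scal (p : ℕ) (V : Type v) [AddCommGroup V] [Module (ZMod p) V] (K : Type v) [Field K]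
    [Module K V] : Kˣ →* (V ≃ₗ[ZMod p] V) where
  toFun u :=
    { toFun := fun v => u • v
      invFun := fun v => u⁻¹ • v
      left_inv := fun v => inv_smul_smul u v
      right_inv := fun v => smul_inv_smul u v
      map_add' := fun v w => smul_add u v w
      map_smul' := fun c v =>
        ZMod.map_smul (DistribSMul.toAddMonoidHom V u) c v }
  map_one' := LinearEquiv.ext fun v => one_smul Kˣ v
  map_mul' a b := LinearEquiv.ext fun v => mul_smul a b v

theorem scal_apply (u : Kˣ) (v : V) : scal p V K u v = u • v := rfl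

theorem scal_injective : Function.Injective (scal p V K) := by
  intro a b hab
  obtain ⟨v, hv⟩ := exists_ne (0 : V)
  have h1 : (a : K) • v = (b : K) • v := LinearEquiv.congr_fun hab v
  rw [← sub_eq_zero, ← sub_smul] at h1
  rcases smul_eq_zero.1 h1 with h | h
  · exact Units.ext (sub_eq_zero.1 h)
  · exact absurd h hv

theorem range_scal {L : Subgroup (V ≃ₗ[ZMod p] V)}
    (hlin : ∀ (c : K) (g : L) (v : V), (g : V ≃ₗ[ZMod p] V) (c • v) = c • (g : V ≃ₗ[ZMod p] V) v)
    (hcomm : ∀ f : V →+ V, (∀ (g : L) v, f ((g : V ≃ₗ[ZMod p] V) v) =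
      (g : V ≃ₗ[ZMod p] V) (f v)) → ∃ c : K, ∀ v, f v = c • v) :
    (scal p V K).range = Subgroup.centralizer (L : Set (V ≃ₗ[ZMod p] V)) := by
  ext f
  rw [Subgroup.mem_centralizer_iff]
  constructor
  · rintro ⟨u, rfl⟩ g hg
    ext v
    exact hlin u ⟨g, hg⟩ v
  · intro hf
    obtain ⟨c, hc⟩ := hcomm (f : V →ₗ[ZMod p] V).toAddMonoidHom (fun g v =>
      (LinearEquiv.congr_fun (hf g g.2) v).symm)
    have hc' : ∀ v, f v = c • v := hc
    have hc0 : c ≠ 0 := by
      rintro rfl
      obtain ⟨v, hv⟩ := exists_ne (0 : V)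
      have := hc' v
      rw [zero_smul] at this
      exact hv ((LinearEquiv.map_eq_zero_iff f).1 this)
    exact ⟨Units.mk0 c hc0, LinearEquiv.ext fun v => (hc' v).symm⟩

theorem card_cent {L : Subgroup (V ≃ₗ[ZMod p] V)}
    (hlin : ∀ (c : K) (g : L) (v : V), (g : V ≃ₗ[ZMod p] V) (c • v) = c • (g : V ≃ₗ[ZMod p] V) v)
    (hcomm : ∀ f : V →+ V, (∀ (g : L) v, f ((g : V ≃ₗ[ZMod p] V) v) =
      (g : V ≃ₗ[ZMod p] V) (f v)) → ∃ c : K, ∀ v, f v = c • v) :
    Nat.card (Subgroup.centralizer (L : Set (V ≃ₗ[ZMod p] V))) = Nat.card K - 1 ∧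
      IsCyclic (Subgroup.centralizer (L : Set (V ≃ₗ[ZMod p] V))) := by
  rw [← range_scal hlin hcomm]
  constructor
  · rw [← Nat.card_congr (MonoidHom.ofInjective (scal_injective (p := p) (V := V)
      (K := K))).toEquiv, Nat.card_units]
  · exact isCyclic_of_surjective (scal p V K).rangeRestrict (scal p V K).rangeRestrict_surjective

end cent

section sub

variable {p : ℕ} [Fact p.Prime] {V : Type v} [AddCommGroup V] [Module (ZMod p) V]
  [Finite V] [Nontrivial V]

/-- **Irreducible coprime linear groups.** `L` is an irreducible `p'`-subgroup of `GL(V)`;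
`ρ` is a faithful irreducible complex representation of degree `d`, `|V| = q ^ d`, `q` a power
of `p`, the centraliser of `L` in `GL(V)` is cyclic of order `q - 1`; the fixed space of a
subgroup `Y` of `L` has `q ^ [ρ_Y, 1]` elements; if the character values are in
`ℤ + Σ ℤ χ(s_i)` with `k` elements `s_i` then `q ≤ p ^ (k + 1)`. -/
theorem main {L : Subgroup (V ≃ₗ[ZMod p] V)} (hcop : ¬ p ∣ Nat.card L)
    (hirr : ∀ W : Submodule (ZMod p) V, (∀ g ∈ L, ∀ w ∈ W, g w ∈ W) → W = ⊥ ∨ W = ⊤) :
    ∃ (q d e : ℕ) (ρ : L →* (Matrix (Fin d) (Fin d) ℂ)ˣ),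
      q = p ^ e ∧ 0 < e ∧ 0 < d ∧ Nat.card V = q ^ d ∧
      IsIrrCharacter L (tr ρ) ∧ tr ρ 1 = d ∧ Function.Injective ρ ∧
      (∀ g : L, Nat.card (fx (g : V ≃ₗ[ZMod p] V)) =
        q ^ finrank ℂ (fixM ρ (Subgroup.zpowers g))) ∧
      (∀ Y : Subgroup L, Nat.card {v : V // ∀ y ∈ Y, (y : V ≃ₗ[ZMod p] V) v = v} =
        q ^ finrank ℂ (fixM ρ Y)) ∧
      (∀ Y : Subgroup L, ∑ᶠ y : Y, tr ρ y = (Nat.card Y : ℂ) * (finrank ℂ (fixM ρ Y) : ℂ)) ∧
      Nat.card (Subgroup.centralizer (L : Set (V ≃ₗ[ZMod p] V))) = q - 1 ∧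
      IsCyclic (Subgroup.centralizer (L : Set (V ≃ₗ[ZMod p] V))) ∧
      (∀ (k : ℕ) (s : Fin k → L), (∀ g, ∃ (a : ℤ) (b : Fin k → ℤ),
        tr ρ g = a + ∑ i, b i * tr ρ (s i)) → q ≤ p ^ (k + 1)) := by
  have hfin : Finite L := inferInstance
  obtain ⟨K, _, hK, hchar, _, d, ρ, t, hd, hd0, hV, hlin, hcomm, hirrc, hfix, hsum, hker, h3, h4⟩ :=
    exists_complex_irr L.subtype hcop (fun W hW => hirr W (fun g hg w hw => hW ⟨g, hg⟩ w hw))
  obtain ⟨e, he, hKe⟩ := card_field p K
  refine ⟨Nat.card K, d, e, ρ, hKe, he, hd0, hV, hirrc, ?_, ?_, ?_, hfix, hsum, ?_, ?_, ?_⟩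
  · simp [tr]
  · rw [injective_iff_map_eq_one]
    intro g hg
    exact Subtype.ext ((hker g).1 hg)
  · intro g
    rw [← hfix]
    refine Nat.card_congr (Equiv.subtypeEquivRight fun v => ?_)
    rw [mem_fx]
    constructor
    · rintro h _ ⟨k, rfl⟩
      have h5 : (g : V ≃ₗ[ZMod p] V) ∈ MulAction.stabilizer (V ≃ₗ[ZMod p] V) v := h
      exact Subgroup.zpow_mem _ h5 k
    · intro h
      exact h g (Subgroup.mem_zpowers g)
  · exact (card_cent hlin hcomm).1
  · exact (card_cent hlin hcomm).2
  · intro k s hs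
    exact card_field_le (K := K) (p := p) h3 h4 s hs

end sub

end Cfsg.Agent.H828.HT.Wrap
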